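import Cfsg.Agent.FT.PF4.Red
import Cfsg.Agent.FT.PF3.Stmt

/-! Bridges between Peterfalvi, Section 4, and the statements written on subgroup types. -/

set_option autoImplicit false

open Pointwise Cfsg Cfsg.Lib.Solv
open scoped ComplexConjugate

namespace Cfsg.Lib.FT

variable {L : Type*} [Group L]

theorem primeTIHyp_top_of (K W₁ W₂ : Subgroup L) [hK : K.Normal] (hKW₁ : K ⊓ W₁ = ⊥)
    (hKW₁' : K ⊔ W₁ = ⊤) (hW₁ : W₁ ≠ ⊥) (hW₁c : IsCyclic W₁)
    (hHall : Nat.Coprime (Nat.card W₁) W₁.index) (hW₂ : W₂ ≠ ⊥) (hW₂c : IsCyclic W₂)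
    (hW₂K : W₂ ≤ K) (hC : ∀ x ∈ W₁, x ≠ 1 → K ⊓ Subgroup.centralizer ({x} : Set L) = W₂)
    (hodd : Odd (Nat.card ↥(W₁ ⊔ W₂))) : PrimeTIHyp ⊤ K (W₁ ⊔ W₂) W₁ W₂ where
  dprod := by
    refine ⟨rfl, fun b hb a ha => ?_, ?_⟩
    · by_cases h1 : a = 1
      · simp [h1]
      · rw [← hC a ha h1] at hb
        exact (Subgroup.mem_centralizer_singleton_iff.mp hb.2).symm
    · rw [eq_bot_iff, ← hKW₁]
      exact fun x hx => ⟨hW₂K hx.2, hx.1⟩
  sdprod := ⟨hKW₁', by rw [Subgroup.normalizer_eq_top]; exact le_top, hKW₁⟩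
  W₁_ne := hW₁
  hall := ⟨le_top, by rwa [Subgroup.relIndex_top_right]⟩
  W₁_cyclic := hW₁c
  W₂_ne := hW₂
  W₂_le := hW₂K
  W₂_cyclic := hW₂c
  cent := hC
  odd := hodd

theorem mem_inertia_extendByZero {K : Subgroup L} [hK : K.Normal] (θ : K → ℂ) (x : L) :
    x ∈ inertia (extendByZero K θ) ↔
      (fun k : K => θ ⟨x * k * x⁻¹, hK.conj_mem (k : L) k.2 x⟩) = θ := by
  rw [mem_inertia_iff]
  constructor
  · intro h
    funext k
    have := h k
    rwa [extendByZero_coe', show x * k * x⁻¹ = ((⟨x * k * x⁻¹, hK.conj_mem (k : L) k.2 x⟩ : K) : L)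
      from rfl, extendByZero_coe'] at this
  · intro h y
    by_cases hy : y ∈ K
    · have := congrFun h ⟨y, hy⟩
      rw [show y = ((⟨y, hy⟩ : K) : L) from rfl, extendByZero_coe', ← this]
      exact extendByZero_coe' K θ ⟨x * y * x⁻¹, hK.conj_mem y hy x⟩
    · rw [extendByZero_of_not_mem' θ hy, extendByZero_of_not_mem']
      intro h'
      apply hy
      have := hK.conj_mem _ h' x⁻¹
      simpa [mul_assoc] using this

theorem prTIres_iff_W₁_le_inertia [Finite L] {M K W W₁ W₂ : Subgroup L}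
    (h : PrimeTIHyp M K W W₁ W₂) {θ : L → ℂ} (hθ : θ ∈ Irr K) :
    W₁ ≤ inertia θ ↔ ∃ j : Hat W₂, θ = primeTIres M K W₁ j := by
  constructor
  · intro hle
    by_contra hne
    push Not at hne
    have e := inertia_not_prTIres h hθ hne
    apply h.W₁_ne
    rw [eq_bot_iff, ← h.sdprod.inf]
    exact le_inf (e ▸ le_inf h.W₁_le hle) le_rfl
  · rintro ⟨j, rfl⟩
    exact h.W₁_le.trans (inertia_prTIres h j)

end Cfsg.Lib.FT
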